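import Cfsg.Agent.TwE6Mult.Lay
import Cfsg.Agent.CentralExt.Sylow
import Cfsg.Agent.ChevTwOrd.E6

/-!
# The multiplier of ²E₆(q), q ≠ 2, is prime to the characteristic (owner: helper31)
-/

set_option autoImplicit false
set_option linter.unusedSectionVars false
set_option linter.style.haveILetI false

namespace Cfsg.Agent.TwE6Mult

open Cfsg.Lie Cfsg.Agent.ChevGrp Cfsg.Agent.ChevTw Cfsg.Agent.CentralExt
open scoped commutatorElement

universe u

variable {K : Type u} [Field K] [Fintype K] {q : ℕ}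

theorem cofactor_not_dvd {p : ℕ} [Fact p.Prime] (hq : 1 ≤ q) (hp : p ∣ q) :
    ¬ p ∣ (q ^ 2 - 1) * (q ^ 5 + 1) * (q ^ 6 - 1) * (q ^ 8 - 1) * (q ^ 9 + 1) * (q ^ 12 - 1) := by
  have hz : (q : ZMod p) = 0 := (ZMod.natCast_eq_zero_iff q p).2 hp
  have hs : ∀ n, 1 ≤ q ^ n := fun n => Nat.one_le_pow _ _ hq
  rw [← ZMod.natCast_eq_zero_iff]
  simp [hz, hs]

theorem lift_block (hq : IsPrimePow q) (hK : Fintype.card K = q ^ 2) {u₀ : Kˣ} (hu : u₀ ^ q = u₀) (hu1 : u₀ ≠ 1)
    {D : Type*} [Group D] {σ : D →* GL chevE6.Idx K} (hc : σ.ker ≤ Subgroup.center D)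
    (hl : ∀ g ∈ twistedE6 K q, ∃ d, σ d = g) (i k : ℕ) (hik : i ≤ k) (hk : k < 24) :
    (∃ c, (layE6 K q).χ k c = 1 ∧ (layE6 K q).χ i c ≠ 1) ∨
      ∀ t u x a, σ x = (layE6 K q).X i t → σ a = (layE6 K q).X k u → ⁅x, a⁆ = 1 := by
  have hi : i < 24 := hik.trans_lt hk
  have h := pair_data i hi k hk hik
  generalize (pairTab.getD i []).getD (k - i) (.inr (0, 0)) = e at h
  rcases e with l | ⟨a, b⟩
  · simp only [entryOK, Bool.and_eq_true, beq_iff_eq] at h
    refine Or.inl ⟨lamTor u₀ hu l, ?_, ?_⟩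
    · show chiE K q (lroot k) _ = 1
      rw [chiE_lamTor, show pairing l (lroot k) = 0 from h.1, zpow_zero]
    · show chiE K q (lroot i) _ ≠ 1
      rw [chiE_lamTor]
      rcases Int.natAbs_eq (pairing l (lroot i)) with e | e <;>
        rw [e, show (pairing l (lroot i)).natAbs = 1 from h.2] <;> simpa using hu1
  · simp only [entryOK, Bool.and_eq_true, decide_eq_true_eq] at h
    obtain ⟨⟨⟨⟨ha, hb⟩, hia⟩, hib⟩, hd⟩ := h
    refine Or.inr fun t u x y hx hy => ?_
    obtain ⟨v, hv⟩ := decOK_spec (K := K) ha hb (lroot_lt hk) hd (int_pow_q hq hK) u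
    exact lift_commute hc (hl _ (Eel_mem hq hK ha v)) (hl _ (Eel_mem hq hK hb 1))
      (Eel_commute (lroot_lt hi) ha hia t v) (Eel_commute (lroot_lt hi) hb hib t 1) hx (hy.trans hv.symm)

/-- The multiplier of ²E₆(q), `q ≠ 2`, is not divisible by the characteristic. -/
theorem not_dvd_char (hq : IsPrimePow q) (hK : Fintype.card K = q ^ 2) (h2 : q ≠ 2) (p : ℕ) [Fact p.Prime]
    [CharP K p] : ¬ p ∣ Nat.card (schurMult ↥(twistedE6 K q)) := by
  have hp' : p.Prime := Fact.out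
  have hpq : p ∣ q := by
    obtain ⟨n, -, hn⟩ := FiniteField.card K p
    exact hp'.dvd_of_dvd_pow (hK ▸ hn ▸ dvd_pow_self p n.ne_zero)
  obtain ⟨u₀, hu, hu1⟩ := exists_gen hq hK h2
  refine not_dvd_card_schurMult_of_forall p fun Δ _ _ τ hτ hp => ?_
  let T := twistedE6 K q
  let σ : Δ →* GL chevE6.Idx K := T.subtype.comp τ
  have hker : σ.ker = τ.ker := by
    ext d
    simp only [MonoidHom.mem_ker, σ, MonoidHom.comp_apply, Subgroup.coe_subtype]
    exact ⟨fun h => Subtype.ext h, fun h => congrArg Subtype.val h⟩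
  have hc : σ.ker ≤ Subgroup.center Δ := hker ▸ hτ.2.1
  have hl : ∀ g ∈ T, ∃ d, σ d = g := fun g hg => by
    obtain ⟨d, hd⟩ := hτ.1 ⟨g, hg⟩
    exact ⟨d, (congrArg Subtype.val hd :)⟩
  let Y := layE6 K q
  let B : Subgroup (GL chevE6.Idx K) := Y.L 0 ⊔ Y.τ.range
  let D : Subgroup Δ := B.comap σ
  let σD : D →* GL chevE6.Idx K := σ.comp D.subtype
  have hlD : ∀ g ∈ T, g ∈ B → ∃ d : D, σD d = g := fun g hg hB => by
    obtain ⟨d, rfl⟩ := hl g hg
    exact ⟨⟨d, hB⟩, rfl⟩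
  have hS : Splits Y σD :=
    { ok := layE6_ok hq hK
      lift_τ := fun c => hlD _ (tauE_mem hq hK c) (le_sup_right (a := Y.L 0) ⟨c, rfl⟩)
      lift_X := fun j hj t => hlD _ (Eel_mem hq hK (lroot_lt hj) t)
        (le_sup_left (b := Y.τ.range) (Y.X_mem (Nat.zero_le _) hj t))
      central := fun z hz => Subgroup.mem_center_iff.2 fun g => Subtype.ext
        (Subgroup.mem_center_iff.1 (hc (show (z : Δ) ∈ σ.ker from hz)) (g : Δ))
      gen := fun d => d.2
      scalar := fun k hk => by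
        refine ⟨lamTor u₀ hu (unitLam.getD k (0, 0, 0, 0)), ?_⟩
        have e : Y.χ k (lamTor u₀ hu (unitLam.getD k (0, 0, 0, 0))) = u₀ := by
          show chiE K q (lroot k) _ = u₀
          rw [chiE_lamTor, unit_data k hk, zpow_one]
        rw [e]
        have hne : (u₀ : K) - 1 ≠ 0 := sub_ne_zero.2 fun e => hu1 (Units.ext e)
        refine ⟨hne, fun v hv => ?_⟩
        have hu' : (Units.mk0 _ hne) ^ q = Units.mk0 _ hne := Units.ext (by
          have hu2 : (u₀ : K) ^ q = u₀ := by rw [← Units.val_pow_eq_pow_val, hu]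
          rw [Units.val_pow_eq_pow_val, Units.val_mk0, ← frobE6_apply hq hK, map_sub, map_one, frobE6_apply, hu2])
        have hconj := tauE_conj (lamTor (Units.mk0 _ hne) hu' (unitLam.getD k (0, 0, 0, 0))) (lroot_lt hk) v
        rw [chiE_lamTor, unit_data k hk, zpow_one, Units.val_mk0, show Eel q (lroot k) _ = 1 from hv] at hconj
        exact conj_eq_one_iff.1 hconj
      block := fun i k hik hk => (lift_block hq hK hu hu1 hc hl i k hik hk).imp id fun h t u x a hx ha =>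
        Subtype.ext (h t u (x : Δ) (a : Δ) hx ha) }
  have hsplit := hS.ker_commutator
  let H : Subgroup Δ := (Y.L 0).comap σ
  have hindex : ¬ p ∣ H.index := by
    intro hd
    have e : H.index = ((Y.L 0).subgroupOf T).index := by
      rw [← Subgroup.index_comap_of_surjective _ hτ.1]
      rfl
    have hc1 : Nat.card ↥((Y.L 0).subgroupOf T) = q ^ 36 := by
      rw [Nat.card_congr (Subgroup.subgroupOfEquivOfLe (show Y.L 0 ≤ T by rw [layE6_zero hq hK]; exact inf_le_right)).toEquiv,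
        layE6_zero hq hK, ← posUnipotent_eq (rulesE6 K), thm_S1086 hq hK]
    have h3 := Subgroup.card_mul_index ((Y.L 0).subgroupOf T)
    rw [hc1, ← e] at h3
    have h4 := ChevTwOrd.order_E6 hq hK (thm_S1102 hq hK)
    rw [← h3, mul_left_comm, mul_assoc, mul_assoc, mul_assoc, mul_assoc, mul_assoc,
      Nat.mul_right_inj (pow_ne_zero _ hq.ne_zero)] at h4
    refine cofactor_not_dvd (p := p) hq.pos hpq ?_
    rw [mul_assoc, mul_assoc, mul_assoc, mul_assoc, ← h4]
    exact hd.trans (Nat.dvd_mul_left _ _)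
  rw [eq_bot_iff]
  intro z hz
  obtain ⟨j, hj⟩ := hp ⟨z, hz⟩
  have hzj : z ^ p ^ j = 1 := congrArg Subtype.val hj
  have hzH : z ∈ H := by
    rw [← hker, MonoidHom.mem_ker] at hz
    rw [Subgroup.mem_comap, hz]
    exact one_mem _
  haveI : H.FiniteIndex := ⟨fun h => hindex (by rw [h]; exact dvd_zero p)⟩
  have hmem : z ∈ (commutator H).map H.subtype := mem_commutator_of_coprime H (hτ.2.1 hz) (hτ.2.2 hz) hzH hzj
    (Nat.Coprime.pow_right j ((Nat.Prime.coprime_iff_not_dvd hp').2 hindex).symm)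
  have hHD : H ≤ D := Subgroup.comap_mono le_sup_left
  have e : (commutator H).map H.subtype =
      ((⁅(Y.L 0).comap σD, (Y.L 0).comap σD⁆ : Subgroup D)).map D.subtype := by
    rw [Subgroup.map_commutator, Subgroup.map_subtype_commutator,
      show ((Y.L 0).comap σD).map D.subtype = H from ?_]
    ext d
    exact ⟨fun ⟨x, hx, e⟩ => e ▸ hx, fun hd => ⟨⟨d, hHD hd⟩, hd, rfl⟩⟩
  rw [e] at hmem
  obtain ⟨w, hw, rfl⟩ := hmem
  have hw1 : w ∈ σD.ker ⊓ ⁅(Y.L 0).comap σD, (Y.L 0).comap σD⁆ := by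
    refine ⟨?_, hw⟩
    rw [← hker] at hz
    exact hz
  rw [hsplit, Subgroup.mem_bot] at hw1
  rw [hw1]
  exact one_mem _

end Cfsg.Agent.TwE6Mult
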