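import Cfsg.Agent.ReeF4Mult.Pairing

/-!
# Central extensions split over weighted layers, any characteristic

A variant of `ReeF4Mult.Split`: parameters of a layer need not be unique, and every pair of layers, a layer
with itself included, has either a separating weight or commuting lifts (owner: helper31).
-/

set_option autoImplicit false

namespace Cfsg.Agent.TwE6Mult

open Subgroup
open scoped commutatorElement
open Cfsg.Agent.ReeF4Mult (comm_congr comm_mul_left comm_mul_right mem_of_map_le)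

/-- Layers `X 0, ..., X (n - 1)` with the torus `τ` acting by the characters `χ`. -/
structure Layers (G K C : Type*) [Group G] [Field K] [CommGroup C] where
  n : ℕ
  X : ℕ → K → G
  τ : C →* G
  χ : ℕ → C →* Kˣ

namespace Layers

variable {G K C : Type*} [Group G] [Field K] [CommGroup C] (Y : Layers G K C)

/-- The group of the layers from `k` on. -/
def L (k : ℕ) : Subgroup G := closure {g | ∃ j t, k ≤ j ∧ j < Y.n ∧ g = Y.X j t}

theorem X_mem {k j : ℕ} (h : k ≤ j) (hj : j < Y.n) (t : K) : Y.X j t ∈ Y.L k :=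
  subset_closure ⟨j, t, h, hj, rfl⟩

theorem L_anti {a b : ℕ} (h : a ≤ b) : Y.L b ≤ Y.L a :=
  (closure_le _).2 fun g ⟨_, t, hj, hjn, hg⟩ => hg ▸ Y.X_mem (h.trans hj) hjn t

theorem L_eq_bot {k : ℕ} (h : Y.n ≤ k) : Y.L k = ⊥ := by
  rw [eq_bot_iff, L, closure_le]
  rintro g ⟨j, t, hj, hjn, rfl⟩
  omega

/-- The axioms of weighted layers. -/
structure OK : Prop where
  conj : ∀ c, ∀ j < Y.n, ∀ t, Y.τ c * Y.X j t * (Y.τ c)⁻¹ = Y.X j ((Y.χ j c : K) * t)
  add : ∀ j < Y.n, ∀ t u, (Y.X j (t + u))⁻¹ * (Y.X j t * Y.X j u) ∈ Y.L (j + 1)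
  comm : ∀ i j, i ≤ j → j < Y.n → ∀ t u, ⁅Y.X i t, Y.X j u⁆ ∈ Y.L (j + 1)
  sep : ∀ k < Y.n, ∀ v, Y.X k v ∈ Y.L (k + 1) → Y.X k v = 1

variable {Y}

variable [Finite G]

/-- Later layers are normalised by all layers. -/
theorem conj_L_of_comm (hcomm : ∀ i j, i ≤ j → j < Y.n → ∀ t u, ⁅Y.X i t, Y.X j u⁆ ∈ Y.L (j + 1)) (k : ℕ)
    {g : G} (hg : g ∈ Y.L 0) : ∀ l ∈ Y.L k, g * l * g⁻¹ ∈ Y.L k := by
  induction hg using closure_induction with
  | mem g hg =>
    obtain ⟨i, t, -, hi, rfl⟩ := hg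
    intro l hl
    induction hl using closure_induction with
    | mem l hl =>
      obtain ⟨j, u, hj, hjn, rfl⟩ := hl
      by_cases hki : k ≤ i
      · exact mul_mem (mul_mem (Y.X_mem hki hi t) (Y.X_mem hj hjn u)) (inv_mem (Y.X_mem hki hi t))
      · rw [show Y.X i t * Y.X j u * (Y.X i t)⁻¹ = ⁅Y.X i t, Y.X j u⁆ * Y.X j u by
          rw [commutatorElement_def]; group]
        exact mul_mem (Y.L_anti (by omega) (hcomm i j (by omega) hjn t u)) (Y.X_mem hj hjn u)
    | one => simp [one_mem]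
    | mul a b _ _ ha hb => have := mul_mem ha hb; simpa [mul_assoc] using this
    | inv a _ ha => have := inv_mem ha; simpa [mul_assoc] using this
  | one => intro l hl; simpa using hl
  | mul a b _ _ ha hb => intro l hl; have := ha _ (hb l hl); simpa [mul_assoc] using this
  | inv a _ ha =>
    have hp : ∀ n : ℕ, ∀ l ∈ Y.L k, a ^ n * l * (a ^ n)⁻¹ ∈ Y.L k := by
      intro n
      induction n with
      | zero => intro l hl; simpa using hl
      | succ n ih => intro l hl; have := ha _ (ih l hl); simpa [pow_succ', mul_assoc] using this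
    intro l hl
    have e : a⁻¹ = a ^ (orderOf a - 1) := by
      rw [inv_eq_iff_mul_eq_one, ← pow_succ', Nat.sub_add_cancel (orderOf_pos a), pow_orderOf_eq_one]
    rw [e]
    exact hp _ l hl

theorem OK.conj_L (h : Y.OK) (k : ℕ) {g : G} (hg : g ∈ Y.L 0) : ∀ l ∈ Y.L k, g * l * g⁻¹ ∈ Y.L k :=
  conj_L_of_comm h.comm k hg

end Layers

section

variable {D G K C Q : Type*} [Group D] [Group G] [Group Q] [Field K] [CommGroup C] {Y : Layers G K C}
  {σ : D →* G} {π : D →* Q}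
variable (hY : Y.OK) (hτ : ∀ c, ∃ d, σ d = Y.τ c) (hX : ∀ j < Y.n, ∀ t, ∃ d, σ d = Y.X j t)
  (hc : σ.ker ≤ center D)

include hY hτ hc in
theorem conj_value (c : C) {i k : ℕ} (hi : i < Y.n) (hk : k < Y.n) {t u : K} {x a x' a' : D}
    (hx : σ x = Y.X i t) (ha : σ a = Y.X k u) (hx' : σ x' = Y.X i ((Y.χ i c : K) * t))
    (ha' : σ a' = Y.X k ((Y.χ k c : K) * u)) (hcen : π ⁅x, a⁆ ∈ center Q) :
    π ⁅x', a'⁆ = π ⁅x, a⁆ := by
  obtain ⟨τ, hτc⟩ := hτ c
  have e : ⁅x', a'⁆ = τ * ⁅x, a⁆ * τ⁻¹ := by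
    rw [comm_congr hc (x := τ * x * τ⁻¹) (y := τ * a * τ⁻¹)
      (by rw [hx', map_mul, map_mul, map_inv, hτc, hx, hY.conj c i hi])
      (by rw [ha', map_mul, map_mul, map_inv, hτc, ha, hY.conj c k hk])]
    simp only [commutatorElement_def]
    group
  rw [e, map_mul, map_mul, mem_center_iff.1 hcen (π τ), map_inv, mul_inv_cancel_right]

include hY hτ hX hc in
theorem pair_kill {i k : ℕ} (hi : i < Y.n) (hk : k < Y.n) {c : C} (h1 : Y.χ k c = 1) (h2 : Y.χ i c ≠ 1)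
    {u : K} {a : D} (ha : σ a = Y.X k u)
    (hcen : ∀ t x, σ x = Y.X i t → π ⁅x, a⁆ ∈ center Q)
    (hdef : ∀ t v d, σ d = (Y.X i (t + v))⁻¹ * (Y.X i t * Y.X i v) → π ⁅d, a⁆ = 1) :
    ∀ t x, σ x = Y.X i t → π ⁅x, a⁆ = 1 := by
  intro t x hx
  set α : K := (Y.χ i c : K)
  have hα : α - 1 ≠ 0 := sub_ne_zero.2 fun e => h2 (Units.ext e)
  set t' := t / (α - 1) with ht'
  have hsum : t' + t = α * t' := by
    rw [ht']
    field_simp
    ring
  obtain ⟨x₁, hx₁⟩ := hX i hi t'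
  obtain ⟨xs, hxs⟩ := hX i hi (t' + t)
  have hd := hdef t' t (xs⁻¹ * (x₁ * x)) (by rw [map_mul, map_inv, map_mul, hxs, hx₁, hx])
  have e1 : π ⁅xs, a⁆ = π ⁅x₁, a⁆ :=
    conj_value hY hτ hc c hi hk hx₁ ha (by rw [hxs, hsum]) (by rw [ha, h1, Units.val_one, one_mul])
      (hcen _ _ hx₁)
  have hc2 : ⁅π x, π a⁆ ∈ center Q := by rw [← map_commutatorElement]; exact hcen _ _ hx
  have hd' : ⁅π (xs⁻¹ * (x₁ * x)), π a⁆ ∈ center Q := by
    rw [← map_commutatorElement, hd]; exact one_mem _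
  have e2 : ⁅π xs * π (xs⁻¹ * (x₁ * x)), π a⁆ = ⁅π x₁ * π x, π a⁆ := by
    rw [← map_mul, mul_inv_cancel_left, map_mul]
  rw [comm_mul_left hd', comm_mul_left hc2, ← map_commutatorElement, ← map_commutatorElement,
    ← map_commutatorElement, ← map_commutatorElement, hd, mul_one, e1] at e2
  exact mul_left_cancel (e2.symm.trans (mul_one _).symm)

end

universe u

variable {D : Type u} {G : Type*} [Group D] [Group G] [Finite G] {K C : Type*} [Field K]
  [CommGroup C] {Y : Layers G K C} {σ : D →* G}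

/-- The hypotheses on a central extension of weighted layers. -/
structure Splits (Y : Layers G K C) (σ : D →* G) : Prop where
  ok : Y.OK
  lift_τ : ∀ c, ∃ d, σ d = Y.τ c
  lift_X : ∀ j < Y.n, ∀ t, ∃ d, σ d = Y.X j t
  central : σ.ker ≤ center D
  gen : ∀ d, σ d ∈ Y.L 0 ⊔ Y.τ.range
  scalar : ∀ k < Y.n, ∃ c, (Y.χ k c : K) - 1 ≠ 0 ∧ ∀ u, Y.X k (((Y.χ k c : K) - 1) * u) = 1 → Y.X k u = 1
  block : ∀ i k, i ≤ k → k < Y.n → (∃ c, Y.χ k c = 1 ∧ Y.χ i c ≠ 1) ∨
    ∀ t u x a, σ x = Y.X i t → σ a = Y.X k u → ⁅x, a⁆ = 1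

/-- The step: the complement grows by one layer. -/
theorem Splits.step (h : Splits Y σ) {k : ℕ} (hk : k < Y.n) (M : Subgroup D) [M.Normal]
    (hMk : M ⊓ σ.ker = ⊥) (hM : M.map σ = Y.L (k + 1)) :
    ∃ M' : Subgroup D, M'.Normal ∧ M' ⊓ σ.ker = ⊥ ∧ M'.map σ = Y.L k := by
  classical
  obtain ⟨hY, hτ, hX, hc, hgen, hscal, hblock⟩ := h
  let π : D →* D ⧸ M := QuotientGroup.mk' M
  have hπ1 : ∀ d, d ∈ M → π d = 1 := fun d hd => (QuotientGroup.eq_one_iff d).2 hd
  have hzc : ∀ d, d ∈ σ.ker → π d ∈ center (D ⧸ M) := fun d hd => mem_center_iff.2 fun q => by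
    obtain ⟨g, rfl⟩ := QuotientGroup.mk'_surjective M q
    rw [← map_mul, ← map_mul, mem_center_iff.1 (hc hd) g]
  have hlow : ∀ d, σ d ∈ Y.L (k + 1) → π d ∈ center (D ⧸ M) := fun d hd =>
    mem_of_map_le (σ := σ) (N := (center (D ⧸ M)).comap π) (fun z hz => hzc z hz)
      (map_mono (fun m hm => show π m ∈ center (D ⧸ M) by rw [hπ1 m hm]; exact one_mem _) (hM.symm ▸ hd))
  have hcomm1 : ∀ {x a : D}, π ⁅x, a⁆ = 1 ↔ Commute (π x) (π a) := fun {x a} => by
    rw [map_commutatorElement, commutatorElement_eq_one_iff_commute]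
  have hker1 : ∀ {z : D}, z ∈ σ.ker → ∀ a, π ⁅z, a⁆ = 1 := fun hz a =>
    hcomm1.2 ((mem_center_iff.1 (hzc _ hz) (π a)).symm)
  have hker1' : ∀ z : D, z ∈ σ.ker → ∀ a : D, π ⁅a, z⁆ = 1 := fun z hz a =>
    hcomm1.2 (mem_center_iff.1 (hzc z hz) (π a))
  -- lifts of the layers up to `k` commute with lifts of layer `k` modulo `M`
  have claim : ∀ i, ∀ d, σ d ∈ Y.L i → ∀ u a, σ a = Y.X k u → π ⁅d, a⁆ = 1 := by
    suffices ∀ r i, Y.n - i = r → ∀ d, σ d ∈ Y.L i → ∀ u a, σ a = Y.X k u → π ⁅d, a⁆ = 1 from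
      fun i => this _ i rfl
    intro r
    induction r with
    | zero =>
      intro i hi d hd u a _
      rw [Y.L_eq_bot (by omega), mem_bot] at hd
      exact hker1 (MonoidHom.mem_ker.2 hd) a
    | succ r ih =>
      intro i hi d hd u a ha
      have IH := ih (i + 1) (by omega)
      have hin : i < Y.n := by omega
      have hlay : ∀ t x, σ x = Y.X i t → ∀ u a, σ a = Y.X k u → π ⁅x, a⁆ = 1 := by
        intro t x hx u a ha
        rcases le_or_gt i k with hik | hik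
        · rcases hblock i k hik hk with ⟨c, h1, h2⟩ | hcomm
          · refine pair_kill hY hτ hX hc hin hk h1 h2 ha (fun t x hx => hlow _ ?_) ?_ t x hx
            · rw [map_commutatorElement, hx, ha]
              exact hY.comm i k hik hk t u
            · exact fun t v d hd => IH d (hd ▸ hY.add i hin t v) u a ha
          · rw [hcomm t u x a hx ha, map_one]
        · have := hlow x (hx ▸ Y.X_mem (by omega) hin t)
          exact hcomm1.2 ((mem_center_iff.1 this (π a)).symm)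
      let N : Subgroup D := (centralizer {π a}).comap π
      have hN : ∀ d, d ∈ N ↔ π ⁅d, a⁆ = 1 := fun d =>
        (show π d ∈ centralizer {π a} ↔ Commute (π d) (π a) from mem_centralizer_singleton_iff).trans hcomm1.symm
      refine (hN d).1 (mem_of_map_le (σ := σ) (fun z hz => (hN z).2 (hker1 hz a)) ?_)
      refine ((closure_le _).2 ?_ : Y.L i ≤ N.map σ) hd
      rintro _ ⟨j, t, hij, hj, rfl⟩
      obtain ⟨x, hx⟩ := hX j hj t
      refine ⟨x, (hN x).2 ?_, hx⟩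
      rcases hij.eq_or_lt with rfl | hlt
      · exact hlay t x hx u a ha
      · exact IH x (hx ▸ Y.X_mem (by omega) hj t) u a ha
  -- commutators with a torus element give the complement on layer `k`
  have hall : ∀ d, σ d ∈ Y.L 0 → ∀ u a, σ a = Y.X k u → Commute (π d) (π a) := fun d hd u a ha =>
    hcomm1.1 (claim 0 d hd u a ha)
  obtain ⟨c₀, hα, hscal0⟩ := hscal k hk
  set α : K := (Y.χ k c₀ : K) with hαdef
  obtain ⟨τ₀, hτ₀⟩ := hτ c₀
  choose l hl using hX k hk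
  have hlL : ∀ u, σ (l u) ∈ Y.L 0 := fun u => hl u ▸ Y.X_mem (Nat.zero_le _) hk u
  have hstat : ∀ u, σ (τ₀ * l u * τ₀⁻¹) = Y.X k (α * u) := fun u => by
    rw [map_mul, map_mul, map_inv, hτ₀, hl, hY.conj c₀ k hk]
  let Y' : K → D ⧸ M := fun u => π ⁅τ₀, l u⁆
  have hY'mul : ∀ u v, Y' (u + v) = Y' u * Y' v := by
    intro u v
    have hd : π ((l (u + v))⁻¹ * (l u * l v)) ∈ center (D ⧸ M) := hlow _ (by
      rw [map_mul, map_inv, map_mul, hl, hl, hl]; exact hY.add k hk u v)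
    have e0 : ⁅π τ₀, π (l (u + v))⁆ = ⁅π τ₀, π (l u) * π (l v)⁆ := by
      have e1 : π (l u) * π (l v) = π (l (u + v)) * π ((l (u + v))⁻¹ * (l u * l v)) := by
        rw [← map_mul π (l (u + v)), mul_inv_cancel_left, map_mul]
      generalize π ((l (u + v))⁻¹ * (l u * l v)) = z at hd e1
      rw [e1]
      have hz : ∀ g, g * z = z * g := mem_center_iff.1 hd
      simp only [commutatorElement_def, mul_inv_rev]
      rw [show π τ₀ * (π (l (u + v)) * z) * (π τ₀)⁻¹ = π τ₀ * π (l (u + v)) * (z * (π τ₀)⁻¹) by group, ← hz (π τ₀)⁻¹]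
      group
    have hcm : Commute (π (l u)) ⁅π τ₀, π (l v)⁆ := by
      rw [← map_commutatorElement, commutatorElement_def, map_mul, map_inv]
      refine Commute.mul_right (Commute.symm ?_) (Commute.inv_right (Commute.symm ?_))
      · exact hall _ (hstat v ▸ Y.X_mem (Nat.zero_le _) hk _) u _ (hl u)
      · exact hall _ (hlL v) u _ (hl u)
    show π ⁅τ₀, l (u + v)⁆ = π ⁅τ₀, l u⁆ * π ⁅τ₀, l v⁆
    simp only [map_commutatorElement, e0]
    rw [show ⁅π τ₀, π (l u) * π (l v)⁆ = ⁅π τ₀, π (l u)⁆ * (π (l u) * ⁅π τ₀, π (l v)⁆ * (π (l u))⁻¹) by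
      simp only [commutatorElement_def]; group, hcm.eq, mul_inv_cancel_right]
  let φ : Multiplicative K →* D ⧸ M :=
    MonoidHom.mk' (fun u => Y' u.toAdd) fun u v => hY'mul u.toAdd v.toAdd
  have hφY : ∀ u, Y' u ∈ φ.range := fun u => ⟨Multiplicative.ofAdd u, rfl⟩
  -- the image is normal
  let N : Subgroup D := (Subgroup.normalizer (φ.range : Set (D ⧸ M))).comap π
  have hkerN : σ.ker ≤ N := fun z hz => by
    refine Subgroup.mem_normalizer_iff.2 fun q => ?_
    rw [(mem_center_iff.1 (hzc z hz) q).symm, mul_inv_cancel_right]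
  have hU : Y.L 0 ≤ N.map σ := by
    refine (closure_le _).2 ?_
    rintro _ ⟨j, t, -, hj, rfl⟩
    obtain ⟨x, hx⟩ := hX j hj t
    refine ⟨x, Subgroup.mem_normalizer_iff.2 fun q => ?_, hx⟩
    have hcx : ∀ q ∈ φ.range, π x * q * (π x)⁻¹ = q := by
      rintro _ ⟨u, rfl⟩
      have hxL : σ x ∈ Y.L 0 := hx ▸ Y.X_mem (Nat.zero_le _) hj t
      have hcm : Commute (π x) (φ u) := by
        show Commute (π x) (π (τ₀ * l u.toAdd * τ₀⁻¹ * (l u.toAdd)⁻¹))
        rw [map_mul, map_inv]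
        exact (hall x hxL _ _ (hstat u.toAdd)).mul_right (hall x hxL _ _ (hl u.toAdd)).inv_right
      rw [hcm.eq, mul_inv_cancel_right]
    refine ⟨fun hq => (hcx q hq).symm ▸ hq, fun hq => ?_⟩
    have h2 := congrArg (fun z => (π x)⁻¹ * z * π x) (hcx _ hq)
    have e' : π x * q * (π x)⁻¹ = q := by simpa [mul_assoc] using h2
    exact e' ▸ hq
  have hT : Y.τ.range ≤ N.map σ := by
    rintro _ ⟨c, rfl⟩
    obtain ⟨τc, hτc⟩ := hτ c
    have fwd : ∀ (c : C) (τc : D), σ τc = Y.τ c → ∀ q ∈ φ.range, π τc * q * (π τc)⁻¹ ∈ φ.range := by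
      rintro c τc hτc _ ⟨u, rfl⟩
      have e : τc * ⁅τ₀, l u.toAdd⁆ * τc⁻¹ = ⁅τ₀, l ((Y.χ k c : K) * u.toAdd)⁆ := by
        rw [show τc * ⁅τ₀, l u.toAdd⁆ * τc⁻¹ = ⁅τc * τ₀ * τc⁻¹, τc * l u.toAdd * τc⁻¹⁆ by
          simp only [commutatorElement_def]; group]
        refine comm_congr hc ?_ ?_
        · rw [map_mul, map_mul, map_inv, hτc, hτ₀, ← map_mul, mul_comm c c₀, map_mul, mul_inv_cancel_right]
        · rw [map_mul, map_mul, map_inv, hτc, hl, hl, hY.conj c k hk]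
      rw [show φ u = π ⁅τ₀, l u.toAdd⁆ from rfl, ← map_inv, ← map_mul, ← map_mul, e]
      exact hφY _
    refine ⟨τc, Subgroup.mem_normalizer_iff.2 fun q => ⟨fwd c τc hτc q, fun hq => ?_⟩, hτc⟩
    have := fwd c⁻¹ τc⁻¹ (by rw [map_inv, map_inv, hτc]) _ hq
    simpa [mul_assoc] using this
  have hNtop : ∀ d, d ∈ N := fun d => mem_of_map_le hkerN ((sup_le hU hT) (hgen d))
  refine ⟨φ.range.comap π, ⟨fun n hn g => ?_⟩, ?_, le_antisymm ?_ ?_⟩
  · simpa only [mem_comap, map_mul, map_inv] using (Subgroup.mem_normalizer_iff.1 (hNtop g) _).1 hn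
  · rw [eq_bot_iff]
    rintro d ⟨⟨u, hu⟩, hd⟩
    replace hd : σ d = 1 := hd
    have hm : ⁅τ₀, l u.toAdd⁆⁻¹ * d ∈ M := (QuotientGroup.eq_one_iff _).1 (by
      show π _ = 1
      rw [map_mul, map_inv, ← hu]
      exact inv_mul_cancel _)
    have h1 := hM ▸ mem_map_of_mem σ hm
    rw [map_mul, map_inv, hd, mul_one, inv_mem_iff, commutatorElement_def, map_mul, map_inv, hstat, hl] at h1
    have h2 := hY.add k hk ((α - 1) * u.toAdd) u.toAdd
    rw [show (α - 1) * u.toAdd + u.toAdd = α * u.toAdd by ring] at h2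
    have h3 : Y.X k ((α - 1) * u.toAdd) ∈ Y.L (k + 1) := by
      have h5 := mul_mem h1 (hY.conj_L (k + 1) (Y.X_mem (Nat.zero_le _) hk u.toAdd) _ h2)
      simpa [mul_assoc] using h5
    have hx1 : Y.X k u.toAdd = 1 := hscal0 _ (hY.sep k hk _ h3)
    have hlk : l u.toAdd ∈ σ.ker := by rw [MonoidHom.mem_ker, hl, hx1]
    have hφ1 : φ u = 1 := hker1' _ hlk τ₀
    rw [hφ1] at hu
    have hdM : d ∈ M := (QuotientGroup.eq_one_iff d).1 hu.symm
    have : d ∈ M ⊓ σ.ker := ⟨hdM, hd⟩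
    rwa [hMk] at this
  · rintro _ ⟨d, ⟨u, hu⟩, rfl⟩
    have hm : ⁅τ₀, l u.toAdd⁆⁻¹ * d ∈ M := (QuotientGroup.eq_one_iff _).1 (by
      show π _ = 1
      rw [map_mul, map_inv, ← hu]
      exact inv_mul_cancel _)
    have h1 := Y.L_anti (Nat.le_succ k) (hM ▸ mem_map_of_mem σ hm)
    have h2 : σ ⁅τ₀, l u.toAdd⁆ ∈ Y.L k := by
      rw [commutatorElement_def, map_mul, map_inv, hstat, hl]
      exact mul_mem (Y.X_mem le_rfl hk _) (inv_mem (Y.X_mem le_rfl hk _))
    have := mul_mem h2 h1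
    rwa [map_mul, map_inv, mul_inv_cancel_left] at this
  · refine (closure_le _).2 ?_
    rintro _ ⟨j, t, hj, hjn, rfl⟩
    have hMle : Y.L (k + 1) ≤ (φ.range.comap π).map σ :=
      hM ▸ map_mono (fun m hm => show π m ∈ φ.range by rw [hπ1 m hm]; exact one_mem _)
    rcases hj.eq_or_lt with rfl | hlt
    · have hmem : σ ⁅τ₀, l (t / (α - 1))⁆ ∈ (φ.range.comap π).map σ := mem_map_of_mem σ (hφY _)
      rw [commutatorElement_def, map_mul, map_inv, hstat, hl] at hmem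
      have h2 := hY.add k hk t (t / (α - 1))
      rw [show t + t / (α - 1) = α * (t / (α - 1)) by field_simp; ring] at h2
      have h6 := hMle (hY.conj_L (k + 1) (Y.X_mem (Nat.zero_le _) hk (t / (α - 1))) _ h2)
      have := mul_mem hmem h6
      simpa [mul_assoc] using this
    · exact hMle (Y.X_mem (by omega) hjn t)

/-- The preimage of the layer group meets the kernel only trivially in commutators. -/
theorem Splits.ker_commutator (h : Splits Y σ) :
    σ.ker ⊓ ⁅(Y.L 0).comap σ, (Y.L 0).comap σ⁆ = ⊥ := by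
  have hM : ∀ r k, Y.n - k = r → ∃ M : Subgroup D, M.Normal ∧ M ⊓ σ.ker = ⊥ ∧ M.map σ = Y.L k := by
    intro r
    induction r with
    | zero => exact fun k hk => ⟨⊥, inferInstance, bot_inf_eq _, by rw [Subgroup.map_bot, Y.L_eq_bot (by omega)]⟩
    | succ r ih =>
      intro k hk
      obtain ⟨M, hn, hMk, hMσ⟩ := ih (k + 1) (by omega)
      exact h.step (k := k) (by omega) M hMk hMσ
  obtain ⟨M, hn, hMk, hMσ⟩ := hM _ 0 rfl
  rw [eq_bot_iff, ← hMk, inf_comm M]
  refine inf_le_inf le_rfl (commutator_le.2 fun x hx y hy => ?_)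
  rw [mem_comap, ← hMσ] at hx hy
  obtain ⟨m, hm, hmx⟩ := hx
  obtain ⟨m', hm', hmy⟩ := hy
  rw [comm_congr h.central hmx.symm hmy.symm]
  exact mul_mem (mul_mem (mul_mem hm hm') (inv_mem hm)) (inv_mem hm')

/-- An element commuting with two others has a lift commuting with each lift of their commutator. -/
theorem lift_commute {D G : Type*} [Group D] [Group G] {σ : D →* G} (hc : σ.ker ≤ center D)
    {g A B : G} (hA : ∃ d, σ d = A) (hB : ∃ d, σ d = B) (h1 : Commute g A) (h2 : Commute g B)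
    {x a : D} (hx : σ x = g) (ha : σ a = ⁅A, B⁆) : ⁅x, a⁆ = 1 := by
  obtain ⟨dA, rfl⟩ := hA
  obtain ⟨dB, rfl⟩ := hB
  have hfix : ∀ d, Commute g (σ d) → σ (x * d * x⁻¹) = σ d := fun d hd => by
    rw [map_mul, map_mul, map_inv, hx, hd.eq, mul_inv_cancel_right]
  have key : x * ⁅dA, dB⁆ * x⁻¹ = ⁅dA, dB⁆ := by
    rw [show x * ⁅dA, dB⁆ * x⁻¹ = ⁅x * dA * x⁻¹, x * dB * x⁻¹⁆ by simp only [commutatorElement_def]; group]
    exact comm_congr hc (hfix _ h1) (hfix _ h2)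
  rw [comm_congr hc (x := x) (y := ⁅dA, dB⁆) rfl (by rw [ha, map_commutatorElement]), commutatorElement_def, key,
    mul_inv_cancel]

end Cfsg.Agent.TwE6Mult
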