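import Cfsg.Agent.TwE6Mult.Roots
import Cfsg.Agent.TwE6Mult.Engine

/-!
# The weighted layers of the unipotent group of ²E₆(q) (owner: helper31)
-/

set_option autoImplicit false
set_option linter.unusedSectionVars false

namespace Cfsg.Agent.TwE6Mult

open Cfsg.Lie Cfsg.Agent.ChevGrp Cfsg.Agent.ChevTw
open scoped commutatorElement

/-- The first root of the layer `j`. -/
abbrev lroot (j : ℕ) : ℕ := ord.getD j 0

theorem lroot_lt {j : ℕ} (hj : j < 24) : lroot j < 72 := ord_data.2.1 ▸ (ord_data.2.2 j hj).1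

theorem rho_lroot_lt {j : ℕ} (hj : j < 24) : rho (lroot j) < 72 := (root_data _ (lroot_lt hj)).1

theorem mem_tailRoots {k r : ℕ} : r ∈ tailRoots k ↔ ∃ i, k ≤ i ∧ i < 24 ∧ (r = lroot i ∨ r = rho (lroot i)) := by
  have hl : ord.length = 24 := ord_data.1
  simp only [tailRoots, List.mem_flatMap, List.mem_cons, List.not_mem_nil, or_false]
  constructor
  · rintro ⟨s, hs, h⟩
    obtain ⟨n, hn, rfl⟩ := List.mem_iff_getElem.1 hs
    rw [List.length_drop] at hn
    refine ⟨k + n, by omega, by omega, ?_⟩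
    rw [lroot, List.getD_eq_getElem _ _ (by omega : k + n < ord.length)]
    simpa [List.getElem_drop] using h
  · rintro ⟨i, hki, hi, h⟩
    refine ⟨lroot i, List.mem_iff_getElem.2 ⟨i - k, by rw [List.length_drop]; omega, ?_⟩, h⟩
    rw [List.getElem_drop, lroot, List.getD_eq_getElem _ _ (by omega : i < ord.length)]
    congr 1
    omega

/-- The roots of the layers from `k` on, as a set. -/
abbrev tailSet (k : ℕ) : Set ℕ := {r | r ∈ tailRoots k}

theorem tailSet_mono {a b : ℕ} (h : a ≤ b) : tailSet b ⊆ tailSet a := fun r hr => by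
  obtain ⟨i, hi, hi', hr⟩ := mem_tailRoots.1 hr
  exact mem_tailRoots.2 ⟨i, h.trans hi, hi', hr⟩

theorem tail_pos {k r : ℕ} (h : r ∈ tailSet k) : chevE6.IsPosRoot r := by
  obtain ⟨i, -, hi, rfl | rfl⟩ := mem_tailRoots.1 h
  · exact ord_data.2.2 i hi
  · have key : ∀ i < 24, chevE6.IsPosRoot (rho (ord.getD i 0)) := by decide +kernel
    exact key i hi

theorem tailSet_zero : tailSet 0 = posSet chevE6 :=
  Set.ext fun r => ⟨tail_pos, fun h => pos_data r (ord_data.2.1 ▸ h.1) h⟩

theorem tail_comm {a b r s : ℕ} (hr : r ∈ tailSet a) (hs : s ∈ tailSet b) (hne : s ≠ r) :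
    ∀ c ∈ chevE6.commTerms r s, c.1 ∈ tailSet (max a b + 1) := by
  intro c hc
  obtain ⟨i, hi, hi', hr⟩ := mem_tailRoots.1 hr
  obtain ⟨j, hj, hj', hs⟩ := mem_tailRoots.1 hs
  have h1 : r ∈ [ord.getD i 0, rho (ord.getD i 0)] := by
    rcases hr with rfl | rfl <;> simp [lroot]
  have h2 : s ∈ [ord.getD j 0, rho (ord.getD j 0)] := by
    rcases hs with rfl | rfl <;> simp [lroot]
  exact tailSet_mono (show max a b + 1 ≤ max i j + 1 by omega) (comm_data i hi' j hj' r h1 s h2 c hc hne)

variable {K : Type*} [Field K]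

theorem tail_closed {len : ℕ → ℕ} (hR : RootTable chevE6 len) (k : ℕ) :
    UClosed chevE6 len (htHom chevE6) (tailSet k) :=
  hR.posSet_closed.subset_closed (fun _ hr => tail_pos hr)
    fun _ hr _ hs hne c hc => tailSet_mono (by omega) (tail_comm hr hs hne c hc)

/-- The roots of one layer. -/
def orbList (j : ℕ) : List ℕ := if rho (lroot j) = lroot j then [lroot j] else [lroot j, rho (lroot j)]

/-- The roots of one layer, as a set. -/
abbrev orbSet (j : ℕ) : Set ℕ := {r | r = lroot j ∨ r = rho (lroot j)}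

theorem orb_enum (j : ℕ) : Enum (orbSet j) (orbList j) := by
  unfold orbList
  split_ifs with h
  · refine ⟨List.nodup_singleton _, fun r => ?_⟩
    simp only [List.mem_singleton, Set.mem_ofPred_eq]
    exact ⟨fun e => Or.inl e, fun e => e.elim id (fun e => e.trans h)⟩
  · refine ⟨List.nodup_cons.2 ⟨fun e => h (List.mem_singleton.1 e).symm, List.nodup_singleton _⟩, fun r => ?_⟩
    simp only [List.mem_cons, List.not_mem_nil, or_false, Set.mem_ofPred_eq]

theorem orb_subset {j : ℕ} (hj : j < 24) : orbSet j ⊆ tailSet j := fun _ hr => mem_tailRoots.2 ⟨j, le_rfl, hj, hr⟩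

theorem orb_closed {len : ℕ → ℕ} (hR : RootTable chevE6 len) {j : ℕ} (hj : j < 24) :
    UClosed chevE6 len (htHom chevE6) (orbSet j) := by
  refine hR.posSet_closed.subset_closed (fun r hr => tail_pos (orb_subset hj hr)) fun r hr s hs hne c hc => ?_
  exfalso
  obtain ⟨-, hrr, -, hcr, -⟩ := root_data _ (lroot_lt hj)
  have key : ∀ i < 24, ∀ r ∈ [ord.getD i 0, rho (ord.getD i 0)], ∀ s ∈ [ord.getD i 0, rho (ord.getD i 0)],
      s ≠ r → chevE6.commTerms r s = [] := by decide +kernel
  rw [key j hj r (by simpa using hr) s (by simpa using hs) hne] at hc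
  simp at hc

section

variable (K)

/-- The layers of ²E₆(q). -/
noncomputable def layE6 (q : ℕ) : Layers (GL chevE6.Idx K) K (Tor K q) where
  n := 24
  X j := Eel q (lroot j)
  τ := tauE K q
  χ j := chiE K q (lroot j)

end

variable [Fintype K] {q : ℕ} (hq : IsPrimePow q) (hK : Fintype.card K = q ^ 2)

include hq hK in
theorem exists_trace : ∃ l : K, l + l ^ q = 1 := by
  classical
  have hinv : ∀ t : K, (t ^ q) ^ q = t := pow_pow_q hK
  have hadd : ∀ a b : K, (a + b) ^ q = a ^ q + b ^ q := fun a b => by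
    simp only [← frobE6_apply hq hK, map_add]
  obtain ⟨t, ht⟩ : ∃ t : K, t + t ^ q ≠ 0 := by
    by_contra h
    push Not at h
    have h1 : (1 : K) + 1 = 0 := by simpa using h 1
    have h2 : ∀ t : K, t ^ q = t := fun t => by linear_combination h t - t * h1
    have hc := ChevTw.card_fixed (K := K) hq.one_lt hK
    rw [Nat.card_congr (Equiv.subtypeUnivEquiv h2), Nat.card_eq_fintype_card, hK] at hc
    have := hq.two_le
    nlinarith
  refine ⟨t / (t + t ^ q), ?_⟩
  rw [div_pow, hadd, hinv, add_comm (t ^ q) t, ← add_div, div_self ht]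

include hq hK in
theorem layE6_le (k : ℕ) : (layE6 K q).L k ≤ (glSys (rulesE6 K)).US (tailSet k) ⊓ twistedE6 K q := by
  refine (Subgroup.closure_le _).2 ?_
  rintro g ⟨j, t, hj, hjn, rfl⟩
  exact Subgroup.mem_inf.2 ⟨Eel_mem_US (mem_tailRoots.2 ⟨j, hj, hjn, Or.inl rfl⟩)
    (mem_tailRoots.2 ⟨j, hj, hjn, Or.inr rfl⟩) t, Eel_mem hq hK (lroot_lt hjn) t⟩

include hq hK in
theorem exists_Eel {j : ℕ} (hj : j < 24) {g : GL chevE6.Idx K} (hg : g ∈ (glSys (rulesE6 K)).US (orbSet j))
    (hf : (twistE6 hq hK).sig g = g) : ∃ t, g = Eel q (lroot j) t := by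
  obtain ⟨len, hR⟩ := (rulesE6 K).root
  set S := glSys (rulesE6 K)
  have hA := orb_closed hR hj
  obtain ⟨v, rfl⟩ := S.exists_coef hR hA (orb_enum j) hg
  have hr := lroot_lt hj
  obtain ⟨hr', hrr, hs, hc, -⟩ := root_data _ hr
  set r := lroot j with hrdef
  have hn := ord_data.2.1
  have h1 : (sgn r : K) * (sgn r : K) = 1 := by rw [← Int.cast_mul]; simp [symE6.sgn_mul_self]
  by_cases e : rho r = r
  · have hL : orbList j = [r] := by rw [orbList, if_pos e]
    rw [hL] at hf ⊢
    have hP : ∀ w : ℕ → K, S.P [r] w = xGL chevE6 K r (w r) := fun w => by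
      show [xGL chevE6 K r (w r)].prod = _
      simp
    rw [hP, sig_x' hq hK hr, e] at hf
    have hfix : (sgn r : K) * v r ^ q = v r := by
      have h2 : S.θ (S.P (orbList j) fun _ => (sgn r : K) * v r ^ q) = S.θ (S.P (orbList j) v) := by
        rw [hL, hP, hP, hf]
      exact S.coef_unique hR hA (orb_enum j) h2 r (Or.inl rfl)
    obtain ⟨l, hl⟩ := exists_trace hq hK
    refine ⟨l * v r, ?_⟩
    rw [hP, Eel, e]
    refine Eq.trans ?_ (S.x_add r (hn ▸ hr) _ _).symm
    show xGL chevE6 K r (v r) = xGL chevE6 K r _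
    congr 1
    rw [mul_pow]
    linear_combination -(v r) * hl - l ^ q * hfix
  · have hL : orbList j = [r, rho r] := by rw [orbList, if_neg e]
    rw [hL] at hf ⊢
    have hP : ∀ w : ℕ → K, S.P [r, rho r] w = xGL chevE6 K r (w r) * xGL chevE6 K (rho r) (w (rho r)) := fun w => by
      show [xGL chevE6 K r (w r), xGL chevE6 K (rho r) (w (rho r))].prod = _
      simp
    refine ⟨v r, ?_⟩
    rw [hP, (twistE6 hq hK).sig_mul _ (x_mem_Gbar' hr _) _ (x_mem_Gbar' hr' _), sig_x' hq hK hr, sig_x' hq hK hr',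
      hrr] at hf
    have h2 : S.θ (S.P (orbList j) fun s => if s = r then (sgn (rho r) : K) * v (rho r) ^ q else (sgn r : K) * v r ^ q)
        = S.θ (S.P (orbList j) v) := by
      rw [hL, hP, hP, if_pos rfl, if_neg e]
      exact congrArg S.θ ((x_cOK hr hr' hc _ _).eq.trans hf)
    have := S.coef_unique hR hA (orb_enum j) h2 (rho r) (Or.inr rfl)
    simp only [if_neg e] at this
    rw [hP, Eel, ← this]

include hq hK in
theorem le_layE6 {k : ℕ} (hk : k ≤ 24) {g : GL chevE6.Idx K} (hg : g ∈ (glSys (rulesE6 K)).US (tailSet k))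
    (hf : (twistE6 hq hK).sig g = g) : g ∈ (layE6 K q).L k := by
  obtain ⟨len, hR⟩ := (rulesE6 K).root
  set S := glSys (rulesE6 K)
  induction hd : 24 - k generalizing k g with
  | zero =>
    have he : tailSet k = ∅ := Set.eq_empty_iff_forall_notMem.2 fun r hr => by
      obtain ⟨i, hi, hi', -⟩ := mem_tailRoots.1 hr
      omega
    have hle : S.US (∅ : Set ℕ) ≤ ⊥ := (Subgroup.closure_le _).2 fun x ⟨r, hr, _⟩ => hr.elim
    rw [he] at hg
    rw [Subgroup.mem_bot.1 (hle hg)]
    exact one_mem _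
  | succ d ih =>
    have hk' : k < 24 := by omega
    have hu : orbSet k ∪ tailSet (k + 1) = tailSet k := by
      ext r
      constructor
      · rintro (h | h)
        · exact orb_subset hk' h
        · exact tailSet_mono (Nat.le_succ k) h
      · intro h
        obtain ⟨i, hi, hi', hr⟩ := mem_tailRoots.1 h
        rcases hi.eq_or_lt with rfl | hlt
        · exact Or.inl hr
        · exact Or.inr (mem_tailRoots.2 ⟨i, hlt, hi', hr⟩)
    have hdis : Disjoint (orbSet k) (tailSet (k + 1)) := Set.disjoint_left.2 fun r hr =>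
      disj_data k hk' r (by simpa using hr)
    obtain ⟨a, ha, b, hb, rfl⟩ := S.US_eq_mul hR (tail_closed hR k) (orb_closed hR hk') (tail_closed hR (k + 1)) hu
      hdis hg
    have hGa : a ∈ S.Gbar := Twist.US_le_Gbar (fun r hr => (tail_pos (orb_subset hk' hr)).1) ha
    have hGb : b ∈ S.Gbar := Twist.US_le_Gbar (fun r hr => (tail_pos hr).1) hb
    rw [(twistE6 hq hK).sig_mul a hGa b hGb] at hf
    have hsa : (twistE6 hq hK).sig a ∈ S.US (orbSet k) := by
      refine (twistE6 hq hK).sig_US (fun r hr => (tail_pos (orb_subset hk' hr)).1) (fun r hr => ?_) ha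
      rw [ρ_eq]
      rcases hr with rfl | rfl
      · exact Or.inr rfl
      · exact Or.inl (root_data _ (lroot_lt hk')).2.1
    have hsb : (twistE6 hq hK).sig b ∈ S.US (tailSet (k + 1)) := by
      refine (twistE6 hq hK).sig_US (fun r hr => (tail_pos hr).1) (fun r hr => ?_) hb
      rw [ρ_eq]
      obtain ⟨i, hi, hi', rfl | rfl⟩ := mem_tailRoots.1 hr
      · exact mem_tailRoots.2 ⟨i, hi, hi', Or.inr rfl⟩
      · exact mem_tailRoots.2 ⟨i, hi, hi', Or.inl (root_data _ (lroot_lt hi')).2.1⟩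
    have hz : a⁻¹ * (twistE6 hq hK).sig a ∈ S.US (orbSet k) ⊓ S.US (tailSet (k + 1)) := by
      refine Subgroup.mem_inf.2 ⟨mul_mem (inv_mem ha) hsa, ?_⟩
      rw [show a⁻¹ * (twistE6 hq hK).sig a = b * ((twistE6 hq hK).sig b)⁻¹ by
        rw [eq_mul_inv_iff_mul_eq, mul_assoc, hf, inv_mul_cancel_left]]
      exact mul_mem hb (inv_mem hsb)
    rw [S.US_inf hR (tail_closed hR k) (orb_closed hR hk') (tail_closed hR (k + 1)) (orb_subset hk')
      (tailSet_mono (Nat.le_succ k)), Set.disjoint_iff_inter_eq_empty.1 hdis] at hz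
    have hle : S.US (∅ : Set ℕ) ≤ ⊥ := (Subgroup.closure_le _).2 fun x ⟨r, hr, _⟩ => hr.elim
    have hfa : (twistE6 hq hK).sig a = a := (inv_mul_eq_one.1 (Subgroup.mem_bot.1 (hle hz))).symm
    rw [hfa] at hf
    obtain ⟨t, rfl⟩ := exists_Eel hq hK hk' ha hfa
    exact mul_mem ((layE6 K q).X_mem le_rfl hk' t)
      ((layE6 K q).L_anti (Nat.le_succ k) (ih (by omega) (mul_left_cancel hf) hb (by omega)))

include hq hK in
theorem layE6_zero : (layE6 K q).L 0 = (glSys (rulesE6 K)).Ubar ⊓ twistedE6 K q := by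
  have e : (glSys (rulesE6 K)).US (tailSet 0) = (glSys (rulesE6 K)).Ubar := by rw [tailSet_zero]; rfl
  refine le_antisymm (e ▸ layE6_le hq hK 0) fun g hg => ?_
  obtain ⟨h1, h2⟩ := Subgroup.mem_inf.1 hg
  exact le_layE6 hq hK (by norm_num) (e.symm ▸ h1) ((grpE6 hq hK).fixed h2)

include hq hK in
theorem layE6_ok : (layE6 K q).OK := by
  obtain ⟨len, hR⟩ := (rulesE6 K).root
  set S := glSys (rulesE6 K)
  refine ⟨fun c j hj t => tauE_conj c (lroot_lt hj) t, fun j hj t u => ?_, fun i j hij hj t u => ?_, fun k hk v hv => ?_⟩ <;>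
    change _ < 24 at *
  · have hr := lroot_lt hj
    obtain ⟨hr', -, -, hc, -⟩ := root_data _ hr
    have hadd : (t + u) ^ q = t ^ q + u ^ q := by simp only [← frobE6_apply hq hK, map_add]
    have hn := ord_data.2.1
    suffices (layE6 K q).X j t * (layE6 K q).X j u = (layE6 K q).X j (t + u) by
      rw [this, inv_mul_cancel]; exact one_mem _
    show Eel q (lroot j) t * Eel q (lroot j) u = Eel q (lroot j) (t + u)
    have e1 : xGL chevE6 K (lroot j) t * xGL chevE6 K (lroot j) u = xGL chevE6 K (lroot j) (t + u) :=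
      S.x_add _ (hn ▸ hr) t u
    have e2 : xGL chevE6 K (rho (lroot j)) ((sgn (lroot j) : K) * t ^ q) *
        xGL chevE6 K (rho (lroot j)) ((sgn (lroot j) : K) * u ^ q) =
        xGL chevE6 K (rho (lroot j)) ((sgn (lroot j) : K) * (t + u) ^ q) := by
      rw [hadd, mul_add]
      exact S.x_add _ (hn ▸ hr') _ _
    unfold Eel
    rw [← e1, ← e2, mul_assoc, ← mul_assoc (xGL chevE6 K (rho _) _) (xGL chevE6 K (lroot j) u),
      ← (x_cOK hr hr' hc u _).eq]
    simp only [mul_assoc]
  · have hi : i < 24 := lt_of_le_of_lt hij hj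
    have hN : S.US (tailSet 0) ≤ Subgroup.normalizer (S.US (tailSet (j + 1)) : Set (GL chevE6.Idx K)) :=
      S.mem_normalizer_of_ideal hR (tail_closed hR 0) (tailSet_mono (Nat.zero_le _))
        fun r hr s hs hne c hc => tailSet_mono (by omega) (tail_comm hr hs hne c hc)
    have hx : ∀ r ∈ tailSet 0, ∀ w : K, ∀ n ∈ S.US (tailSet (j + 1)),
        xGL chevE6 K r w * n * (xGL chevE6 K r w)⁻¹ ∈ S.US (tailSet (j + 1)) :=
      fun r hr w n hn => (Subgroup.mem_normalizer_iff.1 (hN (S.x_mem_US hr w)) n).1 hn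
    have single : ∀ r ∈ orbSet i, ∀ s ∈ orbSet j, ∀ v w : K,
        ⁅xGL chevE6 K r v, xGL chevE6 K s w⁆ ∈ S.US (tailSet (j + 1)) := by
      intro r hr s hs v w
      have hr0 : r ∈ tailSet i := orb_subset hi hr
      have hs0 : s ∈ tailSet j := orb_subset hj hs
      have hn := ord_data.2.1
      have hrn : r < chevE6.nroots := (tail_pos hr0).1
      have hsn : s < chevE6.nroots := (tail_pos hs0).1
      by_cases e : s = r
      · subst e
        rw [commutatorElement_eq_one_iff_commute.2 (x_cOK (hn ▸ hsn) (hn ▸ hsn) (by simp [cOK]) v w)]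
        exact one_mem _
      · have hcm := S.comm r hrn s hsn e
          ((tail_closed hR 0).ne_neg hR (tailSet_mono (Nat.zero_le _) hr0) (tailSet_mono (Nat.zero_le _) hs0)) v w
        set W := ((chevE6.commWord K r s v w).map fun p => S.x p.1 p.2).prod
        have hW : W ∈ S.US (tailSet (j + 1)) := S.word_mem fun p hp => by
          simp only [ChevalleyDatum.commWord, List.mem_map] at hp
          obtain ⟨c, hc, rfl⟩ := hp
          exact tailSet_mono (by omega) (tail_comm hr0 hs0 e c hc)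
        have e' : ⁅xGL chevE6 K r v, xGL chevE6 K s w⁆ =
            xGL chevE6 K s w * (xGL chevE6 K r v * W⁻¹ * (xGL chevE6 K r v)⁻¹) * (xGL chevE6 K s w)⁻¹ := by
          change xGL chevE6 K s w * xGL chevE6 K r v = xGL chevE6 K r v * xGL chevE6 K s w * W at hcm
          rw [commutatorElement_def, eq_mul_inv_iff_mul_eq.2 hcm.symm]
          group
        rw [e']
        exact hx s (tailSet_mono (Nat.zero_le _) hs0) w _
          (hx r (tailSet_mono (Nat.zero_le _) hr0) v _ (inv_mem hW))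
    refine le_layE6 hq hK (by omega) ?_ ((grpE6 hq hK).fixed (g := ⁅_, _⁆) ?_)
    · exact comm_prod_mem (hx _ (tailSet_mono (Nat.zero_le _) (orb_subset hi (Or.inl rfl))) t)
        (hx _ (tailSet_mono (Nat.zero_le _) (orb_subset hj (Or.inl rfl))) u)
        (single _ (Or.inl rfl) _ (Or.inl rfl) _ _) (single _ (Or.inl rfl) _ (Or.inr rfl) _ _)
        (single _ (Or.inr rfl) _ (Or.inl rfl) _ _) (single _ (Or.inr rfl) _ (Or.inr rfl) _ _)
    · show ⁅Eel q (lroot i) t, Eel q (lroot j) u⁆ ∈ twistedE6 K q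
      rw [commutatorElement_def]
      exact mul_mem (mul_mem (mul_mem (Eel_mem hq hK (lroot_lt hi) t) (Eel_mem hq hK (lroot_lt hj) u))
        (inv_mem (Eel_mem hq hK (lroot_lt hi) t))) (inv_mem (Eel_mem hq hK (lroot_lt hj) u))
  · have h1 : (layE6 K q).X k v ∈ S.US (orbSet k) := Eel_mem_US (Or.inl rfl) (Or.inr rfl) v
    have h2 := (Subgroup.mem_inf.1 (layE6_le hq hK (k + 1) hv)).1
    have h3 : (layE6 K q).X k v ∈ S.US (orbSet k) ⊓ S.US (tailSet (k + 1)) := ⟨h1, h2⟩
    rw [S.US_inf hR (tail_closed hR k) (orb_closed hR hk) (tail_closed hR (k + 1)) (orb_subset hk)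
      (tailSet_mono (Nat.le_succ k))] at h3
    rw [show orbSet k ∩ tailSet (k + 1) = ∅ from Set.eq_empty_iff_forall_notMem.2 fun r hr =>
      disj_data k hk r (by rcases hr.1 with rfl | rfl <;> simp [lroot]) hr.2] at h3
    have hle : S.US (∅ : Set ℕ) ≤ ⊥ := (Subgroup.closure_le _).2 fun x ⟨r, hr, _⟩ => hr.elim
    exact Subgroup.mem_bot.1 (hle h3)

include hq hK in
theorem exists_gen (h2 : q ≠ 2) : ∃ u : Kˣ, u ^ q = u ∧ u ≠ 1 := by
  classical
  have hc := ChevTw.card_fixed (K := K) hq.one_lt hK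
  have hq3 : 3 ≤ q := by have := hq.two_le; omega
  obtain ⟨a, ha⟩ : ∃ a : {t : K // t ^ q = t}, a.1 ≠ 0 ∧ a.1 ≠ 1 := by
    by_contra h
    push Not at h
    have hle : Nat.card {t : K // t ^ q = t} ≤ 2 := by
      rw [Nat.card_eq_fintype_card, Fintype.card_subtype]
      refine (Finset.card_le_card (t := {0, 1}) fun x hx => ?_).trans Finset.card_le_two
      simp only [Finset.mem_filter, Finset.mem_univ, true_and] at hx
      rcases em (x = 0) with e | e
      · simp [e]
      · exact Finset.mem_insert_of_mem (Finset.mem_singleton.2 (h ⟨x, hx⟩ e))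
    omega
  exact ⟨Units.mk0 a.1 ha.1, Units.ext (by simpa using a.2), fun e => ha.2 (congrArg Units.val e)⟩

end Cfsg.Agent.TwE6Mult
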