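import Cfsg.Agent.TwE6Mult.Tables
import Cfsg.Agent.ChevTw.TwE6Diag
import Cfsg.Agent.ChevTw.TwE6Thms
import Cfsg.Agent.ChevTw.TwPerfect

/-!
# The orbit elements of ²E₆(q) and its split torus (owner: helper31)
-/

set_option autoImplicit false
set_option linter.unusedSectionVars false

namespace Cfsg.Agent.TwE6Mult

open Cfsg.Lie Cfsg.Agent.ChevGrp Cfsg.Agent.ChevTw
open scoped commutatorElement

variable {K : Type*} [Field K]

/-- The element of the orbit of `r` with parameter `t`. -/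
noncomputable def Eel (q r : ℕ) (t : K) : GL chevE6.Idx K :=
  xGL chevE6 K r t * xGL chevE6 K (rho r) ((sgn r : K) * t ^ q)

theorem x_cOK {r s : ℕ} (hr : r < 72) (hs : s < 72) (h : cOK r s = true) (t u : K) :
    Commute (xGL chevE6 K r t) (xGL chevE6 K s u) := by
  have hn := ord_data.2.1
  simp only [cOK, Bool.or_eq_true, beq_iff_eq, Bool.and_eq_true, bne_iff_ne, List.isEmpty_iff] at h
  by_cases e : s = r
  · subst e
    show _ * _ = _ * _
    have := (glSys (rulesE6 K)).x_add s (hn ▸ hs)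
    exact (this t u).trans (by rw [add_comm]; exact (this u t).symm)
  · obtain ⟨h1, h2⟩ := h.resolve_left e
    exact x_commute (glSys (rulesE6 K)) (hn ▸ hr) (hn ▸ hs) e h1 h2 t u

theorem Eel_commute {q r a : ℕ} (hr : r < 72) (ha : a < 72) (h : cOK₂ r a = true) (t v : K) :
    Commute (Eel q r t) (Eel q a v) := by
  simp only [cOK₂, Bool.and_eq_true] at h
  obtain ⟨⟨⟨h1, h2⟩, h3⟩, h4⟩ := h
  have hr' := (root_data r hr).1
  have ha' := (root_data a ha).1
  exact ((x_cOK hr ha h1 _ _).mul_right (x_cOK hr ha' h2 _ _)).mul_left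
    ((x_cOK hr' ha h3 _ _).mul_right (x_cOK hr' ha' h4 _ _))

/-- A commutator of two products with four pairwise commutators in a subgroup they normalise. -/
theorem comm_prod_mem {G : Type*} [Group G] {N : Subgroup G} {a b c d : G}
    (ha : ∀ n ∈ N, a * n * a⁻¹ ∈ N) (hc : ∀ n ∈ N, c * n * c⁻¹ ∈ N) (h1 : ⁅a, c⁆ ∈ N) (h2 : ⁅a, d⁆ ∈ N)
    (h3 : ⁅b, c⁆ ∈ N) (h4 : ⁅b, d⁆ ∈ N) : ⁅a * b, c * d⁆ ∈ N := by
  have e : ⁅a * b, c * d⁆ = a * (⁅b, c⁆ * (c * ⁅b, d⁆ * c⁻¹)) * a⁻¹ * (⁅a, c⁆ * (c * ⁅a, d⁆ * c⁻¹)) := by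
    simp only [commutatorElement_def]; group
  rw [e]
  exact mul_mem (ha _ (mul_mem h3 (hc _ h4))) (mul_mem h1 (hc _ h2))

/-- The commutator of two root elements with one term. -/
theorem comm_x {a b k : ℕ} {c : ℤ} (ha : a < 72) (hb : b < 72) (hne : b ≠ a) (hne' : b ≠ chevE6.neg a)
    (h : chevE6.commTerms a b = [(k, c, 1, 1)]) (hk : k < 72) (hka : cOK k a = true) (hkb : cOK k b = true)
    (t u : K) : ⁅xGL chevE6 K a t, xGL chevE6 K b u⁆ = xGL chevE6 K k ((c : K) * t * u) := by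
  have hn := ord_data.2.1
  let S := glSys (rulesE6 K)
  have e := S.comm a (hn ▸ ha) b (hn ▸ hb) hne hne' t u
  have c1 := x_cOK (K := K) hk ha hka ((c : K) * -t * u) t
  have c2 := x_cOK (K := K) hk hb hkb ((c : K) * -t * u) u
  have ew : ((chevE6.commWord K a b t u).map fun p => S.x p.1 p.2).prod = xGL chevE6 K k ((c : K) * -t * u) := by
    simp only [ChevalleyDatum.commWord, h, List.map_cons, List.map_nil, List.prod_cons, List.prod_nil, mul_one,
      pow_one]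
    rfl
  rw [ew] at e
  have ei := S.x_inv (hn ▸ hk : k < chevE6.nroots) ((c : K) * -t * u)
  change xGL chevE6 K b u * xGL chevE6 K a t = _ at e
  change (xGL chevE6 K k ((c : K) * -t * u))⁻¹ = xGL chevE6 K k (-((c : K) * -t * u)) at ei
  rw [show (c : K) * t * u = -((c : K) * -t * u) by ring, ← ei]
  generalize xGL chevE6 K k ((c : K) * -t * u) = z at e c1 c2 ⊢
  generalize hA : xGL chevE6 K a t = A at e c1 ⊢
  generalize hB : xGL chevE6 K b u = B at e c2 ⊢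
  rw [commutatorElement_def]
  have e' : A * B = B * A * z⁻¹ := by
    rw [e]
    show A * B = S.x a t * S.x b u * z * z⁻¹
    rw [mul_inv_cancel_right]
    exact (congrArg₂ (· * ·) hA hB).symm
  rw [e', show B * A * z⁻¹ = z⁻¹ * (B * A) from ((c2.inv_left.mul_right c1.inv_left).eq).symm]
  group

/-- The commutator of two orbit elements in a decomposition. -/
theorem decOK_spec {q a b k : ℕ} (ha : a < 72) (hb : b < 72) (hk : k < 72) (h : decOK a b k = true)
    (hsgn : ∀ n : ℤ, (n : K) ^ q = n) (u : K) : ∃ v : K, ⁅Eel q a v, Eel q b (1 : K)⁆ = Eel q k u := by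
  unfold decOK at h
  split at h
  · rename_i k₁ c₁ k₂ c₂ e1 e2
    simp only [Bool.and_eq_true, beq_iff_eq, bne_iff_ne, cOK₂] at h
    obtain ⟨⟨⟨⟨⟨⟨⟨⟨⟨⟨⟨⟨⟨rfl, rfl⟩, hc1⟩, hs⟩, n1⟩, n2⟩, n3⟩, n4⟩, haa⟩, hbb⟩, hab⟩, hba⟩,
      ⟨⟨⟨hka, hka'⟩, hk'a⟩, hk'a'⟩⟩, ⟨⟨hkb, hkb'⟩, hk'b⟩, hk'b'⟩ := h
    obtain ⟨ha', -⟩ := root_data a ha
    obtain ⟨hb', -⟩ := root_data b hb
    obtain ⟨hk', -⟩ := root_data k₁ hk
    refine ⟨(c₁ : K) * u, ?_⟩
    set v := (c₁ : K) * u with hv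
    simp only [Eel, one_pow, mul_one]
    have x1 := comm_x (K := K) ha hb n1 n2 e1 hk hka hkb v 1
    have x2 := comm_x (K := K) ha' hb' n3 n4 e2 hk' hk'a' hk'b' ((sgn a : K) * v ^ q) (sgn b : K)
    have cA := x_cOK (K := K) ha hb' hab v (sgn b : K)
    have cB := x_cOK (K := K) ha' hb hba ((sgn a : K) * v ^ q) 1
    have cZ1 := x_cOK (K := K) hk' ha hk'a ((c₂ : K) * ((sgn a : K) * v ^ q) * (sgn b : K)) v
    have cZ2 := x_cOK (K := K) hk' hb hk'b ((c₂ : K) * ((sgn a : K) * v ^ q) * (sgn b : K)) 1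
    have hv1 : (c₁ : K) * v * 1 = u := by
      have : (c₁ : K) * c₁ = 1 := by exact_mod_cast congrArg (fun n : ℤ => (n : K)) hc1
      rw [hv]; linear_combination u * this
    have hv2 : (c₂ : K) * ((sgn a : K) * v ^ q) * (sgn b : K) = (sgn k₁ : K) * u ^ q := by
      have : (c₁ : K) * c₂ * sgn a * sgn b = sgn k₁ := by exact_mod_cast congrArg (fun n : ℤ => (n : K)) hs
      rw [hv, mul_pow, hsgn, ← this]
      ring
    rw [hv1] at x1
    rw [hv2] at x2 cZ1 cZ2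
    rw [← x1, ← x2]
    rw [← x2] at cZ1 cZ2
    revert cA cB cZ1 cZ2
    generalize xGL chevE6 K a v = A
    generalize xGL chevE6 K b (1 : K) = B
    generalize xGL chevE6 K (rho a) ((sgn a : K) * v ^ q) = A'
    generalize xGL chevE6 K (rho b) (sgn b : K) = B'
    intro cA cB cZ1 cZ2
    have e : ⁅A * A', B * B'⁆ =
        A * (⁅A', B⁆ * (B * ⁅A', B'⁆ * B⁻¹)) * A⁻¹ * (⁅A, B⁆ * (B * ⁅A, B'⁆ * B⁻¹)) := by
      simp only [commutatorElement_def]; group
    rw [e, commutatorElement_eq_one_iff_commute.2 cB, commutatorElement_eq_one_iff_commute.2 cA, mul_one,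
      mul_inv_cancel, mul_one, one_mul, ← cZ2.eq, mul_inv_cancel_right, ← cZ1.eq, mul_inv_cancel_right]
    have hAB : Commute ⁅A', B'⁆ ⁅A, B⁆ := by
      rw [commutatorElement_def A B]
      exact ((cZ1.mul_right cZ2).mul_right cZ1.inv_right).mul_right cZ2.inv_right
    exact hAB.eq
  · simp at h

section

variable [Fintype K] {q : ℕ} (hq : IsPrimePow q) (hK : Fintype.card K = q ^ 2)

include hq hK in
theorem int_pow_q (n : ℤ) : (n : K) ^ q = n := by rw [← frobE6_apply hq hK, map_intCast]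

theorem ρ_eq (r : ℕ) : (twistE6 hq hK).ρ r = rho r := rfl

theorem x_mem_Gbar' {r : ℕ} (hr : r < 72) (t : K) : xGL chevE6 K r t ∈ (glSys (rulesE6 K)).Gbar :=
  (glSys (rulesE6 K)).x_mem_Gbar (ord_data.2.1 ▸ hr) t

theorem sig_x' {r : ℕ} (hr : r < 72) (t : K) :
    (twistE6 hq hK).sig (xGL chevE6 K r t) = xGL chevE6 K (rho r) ((sgn r : K) * t ^ q) := by
  refine ((twistE6 hq hK).sig_x r (ord_data.2.1 ▸ hr) t).trans ?_
  rw [← frobE6_apply hq hK]
  rfl

theorem Eel_mem_Gbar {r : ℕ} (hr : r < 72) (t : K) : Eel q r t ∈ (glSys (rulesE6 K)).Gbar :=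
  mul_mem (x_mem_Gbar' hr t) (x_mem_Gbar' (root_data r hr).1 _)

theorem Eel_fixed {r : ℕ} (hr : r < 72) (t : K) : (twistE6 hq hK).sig (Eel q r t) = Eel q r t := by
  obtain ⟨hr', hrr, hs, hc, -⟩ := root_data r hr
  rw [Eel, (twistE6 hq hK).sig_mul _ (x_mem_Gbar' hr t) _ (x_mem_Gbar' hr' _), sig_x' hq hK hr, sig_x' hq hK hr',
    hrr, hs, mul_pow, int_pow_q hq hK, pow_pow_q hK, ← mul_assoc (sgn r : K)]
  rw [show (sgn r : K) * (sgn r : K) = 1 by rw [← Int.cast_mul]; simp [symE6.sgn_mul_self], one_mul]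
  exact (x_cOK hr hr' hc _ _).eq.symm

theorem Eel_mem_US {r : ℕ} {A : Set ℕ} (h : r ∈ A) (h' : rho r ∈ A) (t : K) :
    Eel q r t ∈ (glSys (rulesE6 K)).US A :=
  mul_mem ((glSys (rulesE6 K)).x_mem_US h _) ((glSys (rulesE6 K)).x_mem_US h' _)

include hq hK in
theorem mem_Tw_of_fixed {g : GL chevE6.Idx K} (hg : g ∈ (glSys (rulesE6 K)).Ubar)
    (hf : (twistE6 hq hK).sig g = g) : g ∈ twistedE6 K q := by
  obtain ⟨len, hR⟩ := (rulesE6 K).root
  have h0 := twE6_ok.isLongest (T := twistE6 hq hK) (fun _ => rfl) rfl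
  exact (Subgroup.mem_inf.1 (((grpE6 hq hK).fixUbar_eq (rulesE6 K) hR
    ((orbE6 hq hK).comm_word hR _) (h0.invSet_eq hR)).2 ⟨hg, hf⟩)).2

include hq hK in
theorem Eel_mem {r : ℕ} (hr : r < 72) (t : K) : Eel q r t ∈ twistedE6 K q := by
  obtain ⟨len, hR⟩ := (rulesE6 K).root
  have hn := ord_data.2.1
  by_cases hp : chevE6.IsPosRoot r
  · refine mem_Tw_of_fixed hq hK (Eel_mem_US ?_ ?_ t) (Eel_fixed hq hK hr t)
    · exact hp
    · exact (twistE6 hq hK).ρ_pos r hp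
  · have hneg : chevE6.IsNegRoot r := hR.neg_of_not_pos (hn ▸ hr) hp
    set ks := twE6.longSeq
    obtain ⟨-, hc, hmem⟩ := (grpE6 hq hK).prod_nJ (rulesE6 K) hR ks
    set n := (ks.map ((grpE6 hq hK).nJ (rulesE6 K) hR)).prod
    have h0 := (twE6_ok.isLongest (T := twistE6 hq hK) (fun _ => rfl) rfl).invSet_eq hR
    have key : ∀ s, chevE6.IsNegRoot s → chevE6.IsPosRoot (act chevE6 ((orbE6 hq hK).word ks) s) := by
      intro s hs
      have h1 : chevE6.neg s ∈ invSet chevE6 ((orbE6 hq hK).word ks) := by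
        rw [h0]; exact (hR.pos_neg_iff hs.1).2 hs
      have h2 := h1.2
      rw [hR.act_neg _ hs.1] at h2
      exact (hR.neg_neg_iff (hR.act_lt _ hs.1)).1 h2
    have h1 : n * Eel q r t * n⁻¹ ∈ (glSys (rulesE6 K)).Ubar := by
      refine (glSys (rulesE6 K)).US_mono ?_ (conjP_mem_US hc (A := {r, rho r})
        (fun s hs => hn ▸ (by rcases hs with rfl | rfl; exacts [hr, (root_data r hr).1]))
        (Eel_mem_US (by simp) (by simp) t))
      rintro _ ⟨s, hs, rfl⟩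
      refine key s ?_
      rcases hs with rfl | rfl
      exacts [hneg, (twistE6 hq hK).ρ_negRoot hR hneg]
    have h2 : n * Eel q r t * n⁻¹ ∈ twistedE6 K q := by
      refine mem_Tw_of_fixed hq hK h1 ?_
      rw [sig_conj ((grpE6 hq hK).Tw_le hmem) (Eel_mem_Gbar hr t) ((grpE6 hq hK).fixed hmem), Eel_fixed hq hK hr]
    have h3 := mul_mem (mul_mem (inv_mem (show n ∈ twistedE6 K q from hmem)) h2) (show n ∈ twistedE6 K q from hmem)
    rwa [show n⁻¹ * (n * Eel q r t * n⁻¹) * n = Eel q r t by group] at h3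

/-- The parameters of the split torus. -/
abbrev Tor (K : Type*) [Field K] (q : ℕ) : Type _ := ↥(fixTorusE6 K q)

/-- The split torus. -/
noncomputable def tauE (K : Type*) [Field K] (q : ℕ) : Tor K q →* GL chevE6.Idx K :=
  let hR := (rulesE6 K).root.choose_spec
  ((glSys (rulesE6 K)).tau (rulesE6 K) hR (glSys_HMul (rulesE6 K) hR)).comp (fixTorusE6 K q).subtype

/-- The character of a root on the split torus. -/
noncomputable def chiE (K : Type*) [Field K] (q r : ℕ) : Tor K q →* Kˣ :=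
  MonoidHom.mk' (fun c => ∏ j : Fin chevE6.rank, c.1 j ^ chevE6.cartan j r) fun a b => by
    simp only [Subgroup.coe_mul, Pi.mul_apply, mul_zpow, Finset.prod_mul_distrib]

theorem chiE_six (c : Tor K q) (r : ℕ) : chiE K q r c =
    c.1 ⟨0, by decide⟩ ^ chevE6.cartan 0 r * c.1 ⟨1, by decide⟩ ^ chevE6.cartan 1 r *
      c.1 ⟨2, by decide⟩ ^ chevE6.cartan 2 r * c.1 ⟨3, by decide⟩ ^ chevE6.cartan 3 r *
      c.1 ⟨4, by decide⟩ ^ chevE6.cartan 4 r * c.1 ⟨5, by decide⟩ ^ chevE6.cartan 5 r := by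
  show (∏ j : Fin 6, c.1 j ^ chevE6.cartan j.val r) = _
  rw [Fin.prod_univ_six]
  rfl

theorem chiE_rho (c : Tor K q) {r : ℕ} (hr : r < 72) : chiE K q (rho r) c = chiE K q r c ^ q := by
  obtain ⟨h5, h1, h4, h3, h2, h0⟩ := (mem_mk_iff c.1).1 c.2
  have e : ∀ (x : Kˣ) (n : ℤ), (x ^ n) ^ q = (x ^ q) ^ n := fun x n => by
    rw [← zpow_natCast, ← zpow_mul, mul_comm, zpow_mul, zpow_natCast]
  obtain ⟨-, -, -, -, hc⟩ := root_data r hr
  rw [chiE_six, chiE_six, hc 0 (by decide), hc 1 (by decide), hc 2 (by decide), hc 3 (by decide), hc 4 (by decide),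
    hc 5 (by decide)]
  simp only [mul_pow, e, h5, h1, h4, h3, h2, h0, List.getD_cons_zero, List.getD_cons_succ]
  ac_rfl

theorem tauE_conj (c : Tor K q) {r : ℕ} (hr : r < 72) (t : K) :
    tauE K q c * Eel q r t * (tauE K q c)⁻¹ = Eel q r ((chiE K q r c : K) * t) := by
  have hR := (rulesE6 K).root.choose_spec
  have hn := ord_data.2.1
  have key : ∀ s < 72, ∀ u : K, tauE K q c * xGL chevE6 K s u * (tauE K q c)⁻¹ =
      xGL chevE6 K s ((chiE K q s c : K) * u) := fun s hs u =>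
    Cfsg.Agent.ChevTw.tau_conj (rulesE6 K) hR (glSys_HMul (rulesE6 K) hR) _ (hn ▸ hs) u
  have e : ∀ x y : GL chevE6.Idx K, tauE K q c * (x * y) * (tauE K q c)⁻¹ =
      (tauE K q c * x * (tauE K q c)⁻¹) * (tauE K q c * y * (tauE K q c)⁻¹) := fun x y => by group
  rw [Eel, e, key r hr, key _ (root_data r hr).1, chiE_rho c hr, Units.val_pow_eq_pow_val, Eel, mul_pow,
    mul_left_comm]

include hq hK in
theorem tauE_mem (c : Tor K q) : tauE K q c ∈ twistedE6 K q :=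
  tau_mem_E6 hq hK (rulesE6 K).root.choose_spec c.2

/-- The torus element of a cocharacter. -/
def lamTor (u : Kˣ) (hu : u ^ q = u) (l : ℤ × ℤ × ℤ × ℤ) : Tor K q :=
  ⟨mkE6 (u ^ l.2.2.2) (u ^ l.1) (u ^ l.2.2.1) (u ^ l.2.1) (u ^ l.2.2.1) (u ^ l.2.2.2), (mem_mk_iff _).2 (by
    have e : ∀ n : ℤ, (u ^ n) ^ q = u ^ n := fun n => by
      rw [← zpow_natCast, ← zpow_mul, mul_comm, zpow_mul, zpow_natCast, hu]
    simp only [mkE6, List.getD_cons_zero, List.getD_cons_succ, e, and_self])⟩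

theorem chiE_lamTor (u : Kˣ) (hu : u ^ q = u) (l : ℤ × ℤ × ℤ × ℤ) (r : ℕ) :
    chiE K q r (lamTor u hu l) = u ^ pairing l r := by
  rw [chiE_six]
  simp only [lamTor, mkE6, List.getD_cons_zero, List.getD_cons_succ, ← zpow_mul, ← zpow_add, pairing]

end

end Cfsg.Agent.TwE6Mult
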